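import Cfsg.Agent.H833.EPX.KPow

/-!
# S5745, socle `T ^ k`: `|H|` divides `|Aut T| ^ k * k!` (helper751)
-/

set_option autoImplicit false

namespace Cfsg.Agent.H751.EPX

open Subgroup Cfsg.Agent.H284 Cfsg.Agent.H209.EPX Cfsg.Agent.H833.EPX Cfsg.Agent.H936.AutPow

/-- a group of automorphisms of `T ^ k` -/
theorem card_dvd_of_mono {T : Type*} [Group T] [Finite T] [IsSimpleGroup T] (hT : ¬ IsMulCommutative T) {k : ℕ}
    {K : Type*} [Group K] (f : K →* MulAut (Fin k → T)) (hf : Function.Injective f) :
    Nat.card K ∣ Nat.card (MulAut T) ^ k * k.factorial := by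
  have : Finite K := Finite.of_injective f hf
  let g : K →* Equiv.Perm (Fin k) := (perm hT).comp f
  have h1 : Nat.card K = Nat.card g.ker * Nat.card g.range := by
    rw [← Subgroup.card_mul_index g.ker, Subgroup.index_ker]
  have h2 : Nat.card g.range ∣ k.factorial := by
    have h := Subgroup.card_subgroup_dvd_card g.range
    rwa [Nat.card_eq_fintype_card (α := Equiv.Perm (Fin k)), Fintype.card_perm, Fintype.card_fin] at h
  have h3 : Nat.card g.ker ∣ Nat.card (MulAut T) ^ k := by
    have h4 : g.ker.map f ≤ (piAut (Fin k) T).range := by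
      rintro _ ⟨x, hx, rfl⟩
      exact ker_le hT hx
    have h5 : Nat.card g.ker = Nat.card (g.ker.map f) :=
      Nat.card_congr (g.ker.equivMapOfInjective f hf).toEquiv
    rw [h5]
    refine (Subgroup.card_dvd_of_le h4).trans ((Subgroup.card_range_dvd _).trans ?_)
    rw [Nat.card_fun, Nat.card_eq_fintype_card (α := Fin k), Fintype.card_fin]
  rw [h1]
  exact Nat.mul_dvd_mul h3 h2

variable {G : Type*} [Group G] {H N : Subgroup G} {T : Type} [Group T] {k : ℕ} {e : N ≃* (Fin k → T)}

theorem card_dvd [Finite G] (h : EPS H N e) : Nat.card H ∣ Nat.card (MulAut T) ^ k * k.factorial := by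
  have hfin : Finite T := by
    have : Finite (Fin k → T) := Finite.of_equiv _ e.toEquiv
    exact Finite.of_injective (fun t : T => (fun _ => t : Fin k → T)) (fun a b hab => congrFun hab ⟨0, h.pos⟩)
  have := h.simple
  let f : H →* MulAut (Fin k → T) :=
    { toFun := fun x => bet h.toNIn e x x.2
      map_one' := bet_one h.toNIn
      map_mul' := fun x y => bet_mul h.toNIn x.2 y.2 }
  exact card_dvd_of_mono (EPS_not_comm h) f fun x y hxy => Subtype.ext (bet_inj h x.2 y.2 hxy)

theorem card_le_pow [Finite G] (h : EPS H N e) : Nat.card H ≤ Nat.card (MulAut T) ^ k * k.factorial := by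
  have hfin : Finite T := by
    have : Finite (Fin k → T) := Finite.of_equiv _ e.toEquiv
    exact Finite.of_injective (fun t : T => (fun _ => t : Fin k → T)) (fun a b hab => congrFun hab ⟨0, h.pos⟩)
  have : Finite (MulAut T) := inferInstance
  exact Nat.le_of_dvd (Nat.mul_pos (Nat.pow_pos Nat.card_pos) k.factorial_pos) (card_dvd h)

end Cfsg.Agent.H751.EPX
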