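import Cfsg.Agent.H758.EPX.Str

/-!
# S5745, `k ≥ 2`: the centralizer of an element of one factor (helper751)

* `card_cent_ge` : `o(t) |T|^(k-1) ≤ |C_G(x)|` for `x` = the image of `t ∈ T` in the `i`-th factor;
* `zkill` : no `N ≅ T^k` if `r` divides `|T|` and `|C_G(x)| < r |T|^(k-1)` for all `x` of order `r`.
-/

set_option autoImplicit false

namespace Cfsg.Agent.H751.EPX

open Subgroup Cfsg.Agent.H758.EPX

variable {G : Type*} [Group G] {N : Subgroup G} {T : Type} [Group T] {k : ℕ} (e : N ≃* (Fin k → T))

theorem card_cent_ge [Finite G] (i : Fin k) (t : T) :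
    orderOf t * Nat.card T ^ (k - 1) ≤ Nat.card (Subgroup.centralizer {inj e i t}) := by
  classical
  have hT : Finite T := Finite.of_injective (inj e i) (inj_injective e i)
  have hmem : ∀ p : Subgroup.zpowers t × ({j : Fin k // j ≠ i} → T),
      ((e.symm (fun j => if h : j = i then (p.1 : T) else p.2 ⟨j, h⟩) : N) : G) ∈
        Subgroup.centralizer {inj e i t} := by
    intro p
    rw [Subgroup.mem_centralizer_singleton_iff, inj_apply, ← Subgroup.coe_mul, ← Subgroup.coe_mul,
      ← map_mul, ← map_mul]
    congr 2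
    funext j
    by_cases h : j = i
    · subst h
      simp only [Pi.mul_apply, dif_pos, Pi.mulSingle_eq_same]
      obtain ⟨n, hn⟩ := p.1.2
      simp only [← hn]
      exact ((Commute.refl t).zpow_left n).eq
    · simp only [Pi.mul_apply, dif_neg h, Pi.mulSingle_eq_of_ne h, mul_one, one_mul]
  let f : Subgroup.zpowers t × ({j : Fin k // j ≠ i} → T) → Subgroup.centralizer {inj e i t} :=
    fun p => ⟨_, hmem p⟩
  have hf : Function.Injective f := by
    intro a b hab
    have h1 : (e.symm (fun j => if h : j = i then (a.1 : T) else a.2 ⟨j, h⟩) : N) =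
        e.symm (fun j => if h : j = i then (b.1 : T) else b.2 ⟨j, h⟩) := by
      apply Subtype.ext
      have h0 := congrArg (fun z : Subgroup.centralizer {inj e i t} => (z : G)) hab
      exact h0
    have h2 := e.symm.injective h1
    refine Prod.ext (Subtype.ext ?_) (funext fun j => ?_)
    · have h3 := congrFun h2 i
      simpa using h3
    · have h3 := congrFun h2 j.1
      simpa [j.2] using h3
  have h3 := Nat.card_le_card_of_injective f hf
  have h4 : Nat.card {j : Fin k // j ≠ i} = k - 1 := by
    rw [Nat.card_eq_fintype_card, Fintype.card_subtype_compl, Fintype.card_fin, Fintype.card_subtype_eq]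
  rw [Nat.card_prod, Nat.card_zpowers, Nat.card_fun, h4] at h3
  exact h3

include e in
theorem zkill [Finite G] (hk : 1 ≤ k) {r : ℕ} [hr : Fact r.Prime] (hrT : r ∣ Nat.card T)
    (hc : ∀ x : G, orderOf x = r → Nat.card (Subgroup.centralizer {x}) < r * Nat.card T ^ (k - 1)) : False := by
  have hT : Finite T := Finite.of_injective (inj e ⟨0, hk⟩) (inj_injective e ⟨0, hk⟩)
  obtain ⟨t, ht⟩ := exists_prime_orderOf_dvd_card' r hrT
  have h1 := card_cent_ge e ⟨0, hk⟩ t
  have h2 : orderOf (inj e ⟨0, hk⟩ t) = r := by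
    rw [orderOf_injective _ (inj_injective e ⟨0, hk⟩), ht]
  rw [ht] at h1
  exact absurd (hc _ h2) (not_lt.2 h1)

end Cfsg.Agent.H751.EPX
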